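import Mathlib

/-! Counting conjugation orbits on cosets of permutation groups by following cycles. -/

set_option autoImplicit false

namespace Cfsg.Agent.PCl

open MulAction Equiv

variable {Ω : Type*} [Fintype Ω]

/-- The coset `g A` is covered by at most `m` orbits of `B` acting by conjugation. -/
def Cov (B : Subgroup (Perm Ω)) (g : Perm Ω) (A : Subgroup (Perm Ω)) (m : ℕ) : Prop :=
  ∃ T : Finset (Perm Ω), T.card ≤ m ∧ ∀ x, g⁻¹ * x ∈ A → ∃ t ∈ T, ∃ b ∈ B, b * t * b⁻¹ = x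

/-- Number of orbits. -/
noncomputable def ob (A : Subgroup (Perm Ω)) : ℕ := Nat.card (orbitRel.Quotient A Ω)

/-- Point stabilizer inside `Perm Ω`. -/
def st (A : Subgroup (Perm Ω)) (a : Ω) : Subgroup (Perm Ω) := A ⊓ stabilizer (Perm Ω) a

omit [Fintype Ω] in
theorem mem_st {A : Subgroup (Perm Ω)} {a : Ω} {x : Perm Ω} : x ∈ st A a ↔ x ∈ A ∧ x a = a :=
  Iff.rfl

omit [Fintype Ω] in
theorem Cov.mono {B B' A : Subgroup (Perm Ω)} {g : Perm Ω} {m m' : ℕ} (h : Cov B g A m)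
    (hB : B ≤ B') (hm : m ≤ m') : Cov B' g A m' := by
  obtain ⟨T, h1, h2⟩ := h
  refine ⟨T, h1.trans hm, fun x hx => ?_⟩
  obtain ⟨t, ht, b, hb, e⟩ := h2 x hx
  exact ⟨t, ht, b, hB hb, e⟩

theorem ob_le (A : Subgroup (Perm Ω)) : ob A ≤ Fintype.card Ω := by
  rw [← Nat.card_eq_fintype_card]
  exact Nat.card_le_card_of_surjective _ Quotient.mk''_surjective

theorem card_fib {X Y : Type*} [Finite X] {φ : X → Y} (h : Function.Surjective φ) (y : Y) :
    Nat.card Y + {x | φ x = y}.ncard ≤ Nat.card X + 1 := by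
  have := Finite.of_surjective φ h
  have h1 := Set.ncard_add_ncard_compl {x | φ x = y}
  have h2 : ({y}ᶜ : Set Y).ncard ≤ {x | φ x = y}ᶜ.ncard := by
    refine le_trans (Set.ncard_le_ncard (fun z hz => ?_)) (Set.ncard_image_le (f := φ))
    obtain ⟨x, rfl⟩ := h z
    exact ⟨x, hz, rfl⟩
  have h3 := Set.ncard_add_ncard_compl ({y} : Set Y)
  rw [Set.ncard_singleton] at h3
  omega

theorem exists_reps {A B : Subgroup (Perm Ω)} {g : Perm Ω} (h : ∀ b ∈ B, g⁻¹ * b * g ∈ A) (a : Ω) :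
    ∃ R : Finset Ω, ob A + R.card ≤ ob B + 1 ∧ (∀ β ∈ R, ∃ x, g⁻¹ * x ∈ A ∧ x a = β) ∧
      ∀ x, g⁻¹ * x ∈ A → ∃ β ∈ R, ∃ b ∈ B, b β = x a := by
  classical
  let φ : orbitRel.Quotient B Ω → orbitRel.Quotient A Ω :=
    Quotient.map' (fun z => g⁻¹ z) (by
      rintro z w ⟨⟨b, hb⟩, rfl⟩
      exact ⟨⟨_, h b hb⟩, by simp⟩)
  have h1 : Function.Surjective φ := fun q => by
    induction q using Quotient.inductionOn' with
    | h z => exact ⟨Quotient.mk'' (g z), by simp [φ]⟩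
  have h2 := card_fib h1 (Quotient.mk'' a)
  refine ⟨{q | φ q = Quotient.mk'' a}.toFinite.toFinset.image Quotient.out, ?_, ?_, ?_⟩
  · have := Finset.card_image_le (s := {q | φ q = Quotient.mk'' a}.toFinite.toFinset)
      (f := Quotient.out)
    rw [← Set.ncard_eq_toFinset_card] at this
    unfold ob
    omega
  · intro β hβ
    obtain ⟨q, hq, rfl⟩ := Finset.mem_image.1 hβ
    rw [Set.Finite.mem_toFinset, Set.mem_ofPred_eq, ← q.out_eq] at hq
    obtain ⟨⟨y, hy⟩, e⟩ := Quotient.exact' hq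
    refine ⟨g * y, by simpa using hy, ?_⟩
    have e' : y a = g⁻¹ q.out := e
    simp [e']
  · intro x hx
    refine ⟨(Quotient.mk'' (x a) : orbitRel.Quotient B Ω).out, Finset.mem_image_of_mem _ ?_, ?_⟩
    · rw [Set.Finite.mem_toFinset]
      exact Quotient.sound' ⟨⟨_, hx⟩, rfl⟩
    · obtain ⟨⟨b, hb⟩, e⟩ := Quotient.exact' (Quotient.out_eq' (s₁ := orbitRel B Ω)
        (Quotient.mk'' (x a))).symm
      exact ⟨b, hb, e⟩

omit [Fintype Ω] in
theorem Cov.step {A : Subgroup (Perm Ω)} {g : Perm Ω} {a : Ω}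
    (h : ∀ b ∈ st A a, g⁻¹ * b * g ∈ A) {R : Finset Ω}
    (h2 : ∀ β ∈ R, ∃ x, g⁻¹ * x ∈ A ∧ x a = β)
    (h3 : ∀ x, g⁻¹ * x ∈ A → ∃ β ∈ R, ∃ b ∈ st A a, b β = x a) {m : Ω → ℕ}
    (ih : ∀ g' β, β ∈ R → g⁻¹ * g' ∈ A → g' a = β →
      (∀ b ∈ st (st A a) β, g'⁻¹ * b * g' ∈ st A a) → Cov (st (st A a) β) g' (st A a) (m β)) :
    Cov (st A a) g A (∑ β ∈ R, m β) := by
  classical
  choose! x hx e using h2
  have h4 : ∀ β ∈ R, Cov (st (st A a) β) (x β) (st A a) (m β) := fun β hβ =>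
    ih _ _ hβ (hx β hβ) (e β hβ) fun b hb => ⟨by
      have := A.mul_mem (A.mul_mem (A.inv_mem (hx β hβ)) (h b hb.1)) (hx β hβ)
      simpa [mul_assoc] using this, by
      have : b β = β := hb.2
      simp [e β hβ, this, Equiv.symm_apply_eq]⟩
  choose! T hT hc using h4
  refine ⟨R.biUnion T, Finset.card_biUnion_le.trans (Finset.sum_le_sum hT), fun y hy => ?_⟩
  obtain ⟨β, hβ, b, hb, e'⟩ := h3 y hy
  have h5 : b a = a := hb.2
  obtain ⟨t, ht, c, hc', e''⟩ := hc β hβ (b⁻¹ * y * b) ⟨by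
    have := A.mul_mem (A.mul_mem (A.mul_mem (A.inv_mem (hx β hβ))
      (h _ ((st A a).inv_mem hb))) hy) hb.1
    simpa [mul_assoc] using this, by simp [h5, ← e', Equiv.symm_apply_eq, e β hβ]⟩
  refine ⟨t, Finset.mem_biUnion.2 ⟨β, hβ, ht⟩, b * c, mul_mem hb hc'.1, ?_⟩
  rw [mul_inv_rev, show b * c * t * (c⁻¹ * b⁻¹) = b * (c * t * c⁻¹) * b⁻¹ by group, e'']
  group

theorem cov_main (A : Subgroup (Perm Ω)) : ∀ g a, (∀ b ∈ st A a, g⁻¹ * b * g ∈ A) →
    Cov (st A a) g A (2 ^ (Fintype.card Ω - ob A)) := by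
  induction hn : Nat.card A using Nat.strong_induction_on generalizing A with
  | _ n ih =>
  have key : ∀ g a, (∀ b ∈ st A a, g⁻¹ * b * g ∈ A) → st A a ≠ A →
      Cov (st A a) g A (2 ^ (Fintype.card Ω - ob A)) := fun g a h hne => by
    obtain ⟨R, h1, h2, h3⟩ := exists_reps h a
    have h4 : Nat.card (st A a) < n :=
      hn ▸ lt_of_not_ge fun e => hne (Subgroup.eq_of_le_of_card_ge inf_le_left e)
    refine (Cov.step h h2 h3 fun g' β _ _ _ hg => ih _ h4 _ rfl g' β hg).mono le_rfl ?_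
    rw [Finset.sum_const, smul_eq_mul]
    have h5 := ob_le (st A a)
    have h6 : R.card ≤ 2 ^ (ob (st A a) - ob A) :=
      le_trans (by omega) (Nat.lt_two_pow_self (n := ob (st A a) - ob A))
    obtain h7 | h7 := Nat.eq_zero_or_pos R.card
    · simp [h7]
    refine (Nat.mul_le_mul_right _ h6).trans ?_
    rw [← pow_add]
    exact Nat.pow_le_pow_right two_pos (by omega)
  intro g a h
  by_cases hne : st A a = A
  · by_cases h2 : ∃ a', st A a' ≠ A
    · obtain ⟨a', h2⟩ := h2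
      exact (key g a' (fun b hb => h b (hne.symm ▸ hb.1)) h2).mono (hne.symm ▸ inf_le_left) le_rfl
    · push Not at h2
      refine ⟨{g}, by simpa using Nat.one_le_two_pow, fun x hx => ⟨g, by simp, 1, one_mem _, ?_⟩⟩
      have : g⁻¹ * x = 1 := Equiv.ext fun z => ((h2 z).symm ▸ hx : g⁻¹ * x ∈ st A z).2
      rw [inv_mul_eq_one] at this
      simp [this]
  · exact key g a h hne

omit [Fintype Ω] in
theorem Cov.card_le {S : Subgroup (Perm Ω)} {m : ℕ} (h : Cov S 1 S m) :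
    Nat.card (ConjClasses S) ≤ m := by
  classical
  obtain ⟨T, h1, h2⟩ := h
  refine le_trans ?_ h1
  rw [← Nat.card_eq_finsetCard]
  refine Nat.card_le_card_of_surjective
    (fun t : T => if h : t.1 ∈ S then ConjClasses.mk ⟨t.1, h⟩ else 1) fun c => ?_
  obtain ⟨⟨x, hx⟩, rfl⟩ := ConjClasses.mk_surjective c
  obtain ⟨t, ht, b, hb, e⟩ := h2 x (by simpa using hx)
  have h3 : t ∈ S := by
    have := S.mul_mem (S.mul_mem (S.inv_mem hb) hx) hb
    simpa [← e, mul_assoc] using this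
  refine ⟨⟨t, ht⟩, ?_⟩
  simp only [h3, dite_true]
  exact ConjClasses.mk_eq_mk_iff_isConj.2 (isConj_iff.2 ⟨⟨b, hb⟩, Subtype.ext e⟩)

theorem card_conjClasses_le (S : Subgroup (Perm Ω)) :
    Nat.card (ConjClasses S) ≤ 2 ^ (Fintype.card Ω - ob S) := by
  obtain h | ⟨⟨a⟩⟩ := isEmpty_or_nonempty Ω
  · exact Cov.card_le ⟨{1}, by simp,
      fun x _ => ⟨1, by simp, 1, one_mem _, Subsingleton.elim _ _⟩⟩
  · exact ((cov_main S 1 a fun b hb => by simpa using hb.1).mono inf_le_left le_rfl).card_le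

end Cfsg.Agent.PCl
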