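import Cfsg.Agent.PCl.Orb

/-! The class number bound `k(G) ≤ ∏ u(|orbit|)`. -/

set_option autoImplicit false

namespace Cfsg.Agent.PCl

open MulAction Equiv
open scoped Classical

variable {Ω : Type*} [Fintype Ω]

/-- `X` is covered by at most `m` orbits of `B` acting by conjugation. -/
def Cv (B : Subgroup (Perm Ω)) (X : Set (Perm Ω)) (m : ℝ) : Prop :=
  ∃ T : Finset (Perm Ω), (T.card : ℝ) ≤ m ∧ ∀ x ∈ X, ∃ t ∈ T, ∃ b ∈ B, b * t * b⁻¹ = x

variable {A B C : Subgroup (Perm Ω)} {X Y : Set (Perm Ω)} {m m' : ℝ} {g : Perm Ω} {a s : Ω}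

omit [Fintype Ω] in
theorem Cv.mono (h : Cv C X m) (hB : C ≤ B) (hm : m ≤ m')
    (hY : ∀ y ∈ Y, ∃ b ∈ B, b⁻¹ * y * b ∈ X) : Cv B Y m' := by
  obtain ⟨T, h1, h2⟩ := h
  refine ⟨T, h1.trans hm, fun y hy => ?_⟩
  obtain ⟨b, hb, e⟩ := hY y hy
  obtain ⟨t, ht, c, hc, e'⟩ := h2 _ e
  refine ⟨t, ht, b * c, mul_mem hb (hB hc), ?_⟩
  rw [mul_inv_rev, show b * c * t * (c⁻¹ * b⁻¹) = b * (c * t * c⁻¹) * b⁻¹ by group, e']
  group

omit [Fintype Ω] in
theorem Cv.sub (h : Cv C X m) (hB : C ≤ B) (hm : m ≤ m') (hY : Y ⊆ X) : Cv B Y m' :=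
  h.mono hB hm fun y hy => ⟨1, one_mem _, by simpa using hY hy⟩

omit [Fintype Ω] in
theorem Cv.union (h : Cv B X m) (h' : Cv B Y m') : Cv B (X ∪ Y) (m + m') := by
  obtain ⟨T, h1, h2⟩ := h
  obtain ⟨T', h3, h4⟩ := h'
  refine ⟨T ∪ T', le_trans ?_ (add_le_add h1 h3), ?_⟩
  · exact_mod_cast Finset.card_union_le _ _
  · rintro x (hx | hx)
    · obtain ⟨t, ht, e⟩ := h2 x hx
      exact ⟨t, Finset.mem_union_left _ ht, e⟩
    · obtain ⟨t, ht, e⟩ := h4 x hx
      exact ⟨t, Finset.mem_union_right _ ht, e⟩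

omit [Fintype Ω] in
theorem Cv.of_empty (hm : 0 ≤ m) (h : ∀ x, x ∉ X) : Cv B X m :=
  ⟨∅, by simpa, fun x hx => (h x hx).elim⟩

omit [Fintype Ω] in
theorem Cv.biUnion {ι : Type*} (R : Finset ι) {F : ι → Set (Perm Ω)} {f : ι → ℝ}
    (h : ∀ i ∈ R, Cv B (F i) (f i)) : Cv B {x | ∃ i ∈ R, x ∈ F i} (∑ i ∈ R, f i) := by
  induction R using Finset.induction_on with
  | empty => exact .of_empty (by simp) (by simp)
  | insert i R hi ih =>
    rw [Finset.sum_insert hi]
    refine ((h i (Finset.mem_insert_self _ _)).union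
      (ih fun j hj => h j (Finset.mem_insert_of_mem hj))).sub le_rfl le_rfl ?_
    rintro x ⟨j, hj, e⟩
    rcases Finset.mem_insert.1 hj with rfl | hj
    exacts [Or.inl e, Or.inr ⟨j, hj, e⟩]

/-- The bound for a state with a current point `a` and a starting point `s`. -/
def Opn (A : Subgroup (Perm Ω)) : Prop :=
  ∀ g a s, st A a = st (cj g A) s →
    Cv (st A a) {x | g⁻¹ * x ∈ A} (lam (orb A a).card * UU A Finset.univ)

/-- The bound for a coset of a normalizing element. -/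
def Cls (A : Subgroup (Perm Ω)) : Prop :=
  ∀ g, cj g A = A → Cv A {x | g⁻¹ * x ∈ A} (UU A Finset.univ)

omit [Fintype Ω] in
theorem cj_eq {x : Perm Ω} (hx : g⁻¹ * x ∈ A) : cj x A = cj g A := by
  ext b
  rw [mem_cj, mem_cj, ← A.mul_mem_cancel_left hx, ← A.mul_mem_cancel_right (A.inv_mem hx)]
  simp [mul_assoc]

theorem step (ih : Opn (st A a)) (h : st A a = st (cj g A) s) (D : Finset Ω) :
    Cv (st A a) {x | g⁻¹ * x ∈ A ∧ x a ∈ D} (SS (st A a) D * UU (st A a) Finset.univ) := by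
  rw [SS, Finset.sum_mul]
  refine (Cv.biUnion (F := fun P => {x | g⁻¹ * x ∈ A ∧ x a ∈ P}) _ fun P hP => ?_).sub le_rfl le_rfl
    fun x hx => ⟨_, Finset.mem_image_of_mem _ hx.2, hx.1, self_mem_orb⟩
  by_cases h0 : ∃ x, g⁻¹ * x ∈ A ∧ x a ∈ P
  swap
  · exact .of_empty (mul_pos (one_pos.trans_le (one_le_lam _)) UU_pos).le fun x hx => h0 ⟨x, hx⟩
  obtain ⟨x, hx, hxa⟩ := h0
  obtain ⟨z, -, rfl⟩ := Finset.mem_image.1 hP
  have h1 : ∀ b, b ∈ st A a ↔ x⁻¹ * b * x ∈ A ∧ b s = s := fun b => by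
    rw [h, ← cj_eq hx, mem_st, mem_cj]
  have h2 := ih x (x a) s (by
    ext b
    rw [mem_st, h1, mem_st, mem_cj, mem_st]
    simp only [Perm.mul_apply, Perm.inv_eq_iff_eq]
    tauto)
  rw [orb_eq hxa] at h2
  refine h2.mono inf_le_left le_rfl fun y hy => ?_
  obtain ⟨b, hb, e⟩ := mem_orb.1 (orb_eq hxa ▸ hy.2 : y a ∈ orb (st A a) (x a))
  have h3 : b a = a := hb.2
  refine ⟨b, hb, ?_, ?_⟩
  · have := A.mul_mem (A.mul_mem (A.mul_mem ((h1 _).1 (inv_mem hb)).1 (A.inv_mem hx)) hy.1) hb.1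
    simpa [mul_assoc] using this
  · show (x⁻¹ * (b⁻¹ * y * b)) a = a
    simp [h3, ← e]

theorem card_eq (h : st A a = st (cj g A) s) : (orb (cj g A) s).card = (orb A a).card := by
  have h1 := card_orb_mul (cj g A) s
  rw [← h, card_cj, ← card_orb_mul A a] at h1
  exact Nat.eq_of_mul_eq_mul_right Nat.card_pos h1

theorem two_le (hne : st A a ≠ A) : 2 ≤ (orb A a).card := by
  by_contra h
  refine hne (le_antisymm inf_le_left fun x hx => ⟨hx, ?_⟩)
  exact Finset.card_le_one.1 (by omega) _ (mem_orb.2 ⟨x, hx, rfl⟩) _ self_mem_orb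

theorem mem_delta {x : Perm Ω} (hx : g⁻¹ * x ∈ A) : x a ∈ orb (cj g A) (g a) :=
  mem_orb.2 ⟨x * g⁻¹, mem_cj.2 (by simpa [mul_assoc] using hx), by simp⟩

theorem card_delta : (orb (cj g A) (g a)).card = (orb A a).card := by
  rw [orb_cj, Finset.card_map]

theorem far (ih : Opn (st A a)) (h : st A a = st (cj g A) s) (hne : st A a ≠ A)
    (hs : s ∉ orb (cj g A) (g a)) : Cv (st A a) {x | g⁻¹ * x ∈ A} (UU A Finset.univ) := by
  refine (step ih h (orb (cj g A) (g a))).sub le_rfl ?_ fun x hx => ⟨hx, mem_delta hx⟩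
  have hB : st A a ≤ cj g A := h ▸ inf_le_left
  have h1 : orb (cj g A) s ⊆ Finset.univ \ orb (cj g A) (g a) :=
    (inv_univ.sdiff inv_orb).orb_subset (by simpa using hs)
  have hf : ∀ x ∈ st A a, x s = s := fun x hx => (h ▸ hx : x ∈ st (cj g A) s).2
  have h2 := UU_closed (inv_orb.mono hB : Inv _ (orb (cj g A) (g a)))
  have h3 := UU_le ((inv_orb.mono hB : Inv _ (orb (cj g A) s)).sdiff (inv_single hf))
  have h4 := UU_mono hB ((inv_univ.sdiff inv_orb).sdiff inv_orb :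
    Inv _ ((Finset.univ \ orb (cj g A) (g a)) \ orb (cj g A) s))
  rw [← UU_cj (A := A) g, UU_split (A := cj g A) (inv_orb (z := g a)) (Finset.subset_univ _),
    UU_split inv_orb h1, UU_orb, UU_orb,
    UU_split ((inv_orb (z := g a)).mono hB) (Finset.subset_univ _), UU_split (inv_orb.mono hB) h1,
    UU_erase self_mem_orb hf, card_eq h, card_delta]
  rw [Finset.card_sdiff_of_subset (by simpa using self_mem_orb), card_eq h,
    Finset.card_singleton] at h3
  rw [card_delta] at h2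
  obtain ⟨k, hk⟩ : ∃ k, (orb A a).card = k + 2 := ⟨_, (Nat.sub_add_cancel (two_le hne)).symm⟩
  rw [hk] at h2 h3 ⊢
  rw [← mul_assoc, ← mul_assoc, ← mul_assoc]
  refine mul_le_mul (le_trans ?_ (u_sq k)) h4 UU_pos.le (mul_pos (u_pos _) (u_pos _)).le
  exact mul_le_mul (by linarith) h3 UU_pos.le (by linarith [one_le_u (k + 3)])

theorem near (ih : Opn (st A a)) (h : st A a = st (cj g A) s) (hs : s ∈ orb (cj g A) (g a)) :
    Cv (st A a) {x | g⁻¹ * x ∈ A} (lam (orb A a).card * UU A Finset.univ) := by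
  refine (step ih h (orb (cj g A) (g a))).sub le_rfl ?_ fun x hx => ⟨hx, mem_delta hx⟩
  have hB : st A a ≤ cj g A := h ▸ inf_le_left
  have hf : ∀ x ∈ st A a, x s = s := fun x hx => (h ▸ hx : x ∈ st (cj g A) s).2
  have h2 := UU_open ((inv_orb.mono hB : Inv _ (orb (cj g A) (g a))).sdiff (inv_single hf))
  have h4 := UU_mono hB (inv_univ.sdiff inv_orb : Inv _ (Finset.univ \ orb (cj g A) (g a)))
  rw [Finset.card_sdiff_of_subset (by simpa using hs), Finset.card_singleton,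
    Nat.sub_add_cancel (Finset.card_pos.2 ⟨_, hs⟩), card_delta] at h2
  rw [← UU_cj (A := A) g, UU_split (A := cj g A) (inv_orb (z := g a)) (Finset.subset_univ _), UU_orb,
    UU_split ((inv_orb (z := g a)).mono hB) (Finset.subset_univ _), UU_erase hs hf, SS_erase hs hf, card_delta,
    ← mul_assoc, ← mul_assoc]
  exact mul_le_mul h2 h4 UU_pos.le (mul_pos (one_pos.trans_le (one_le_lam _)) (u_pos _)).le

theorem cls_of (ih : ∀ B : Subgroup (Perm Ω), B ≤ A → B ≠ A → Opn B ∧ Cls B) : Cls A := by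
  intro g hg
  by_cases h0 : ∃ a, st A a ≠ A
  swap
  · push Not at h0
    refine ⟨{g}, by simpa using one_le_UU, fun x hx => ⟨g, by simp, 1, one_mem _, ?_⟩⟩
    have : g⁻¹ * x = 1 := Equiv.ext fun z => ((h0 z).symm ▸ hx : g⁻¹ * x ∈ st A z).2
    rw [inv_mul_eq_one] at this
    simp [this]
  obtain ⟨a, hne⟩ := h0
  have h : st A a = st (cj g A) a := by rw [hg]
  have i1 := (ih _ inf_le_left hne).1
  by_cases hs : a ∈ orb (cj g A) (g a)
  swap
  · exact (far i1 h hne hs).sub inf_le_left le_rfl subset_rfl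
  rw [hg] at hs
  let C : Subgroup (Perm Ω) := A ⊓ fixingSubgroup (Perm Ω) (orb A a : Set Ω)
  have hC : ∀ x, x ∈ C ↔ x ∈ A ∧ ∀ z ∈ orb A a, x z = z := fun x => by
    simp [C, mem_fixingSubgroup_iff]
  have h1 : Cv A {x | g⁻¹ * x ∈ A ∧ ∀ z ∈ orb A a, x z = z} (UU A (Finset.univ \ orb A a)) := by
    by_cases h1 : ∃ x, g⁻¹ * x ∈ A ∧ ∀ z ∈ orb A a, x z = z
    swap
    · exact .of_empty UU_pos.le fun x hx => h1 ⟨x, hx⟩
    obtain ⟨x, hx, hx'⟩ := h1
    have h2 : C ≠ A := fun e => hne (le_antisymm inf_le_left fun y hy =>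
      ⟨hy, ((hC y).1 (e.symm ▸ hy)).2 a self_mem_orb⟩)
    have h3 := (ih C inf_le_left h2).2 x (by
      ext b
      rw [mem_cj, hC, hC, ← mem_cj, cj_eq hx, hg]
      refine and_congr_right fun _ => forall₂_congr fun z hz => ?_
      simp [hx' z hz, Equiv.symm_apply_eq])
    refine h3.sub inf_le_left ?_ fun y hy => (hC _).2 ⟨?_, fun z hz => ?_⟩
    · rw [UU_split (inv_orb.mono inf_le_left : Inv C (orb A a)) (Finset.subset_univ _),
        UU_fix fun y hy => ((hC y).1 hy).2, one_mul]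
      exact UU_mono inf_le_left (inv_univ.sdiff inv_orb)
    · simpa [mul_assoc] using A.mul_mem (A.inv_mem hx) hy.1
    · simp [hx' z hz, hy.2 z hz, Equiv.symm_apply_eq]
  have hf : ∀ x ∈ st A a, x a = a := fun x hx => hx.2
  have h2 : Cv A {x | g⁻¹ * x ∈ A ∧ ∃ z ∈ orb A a, x z ≠ z} _ :=
    (step i1 h (orb A a \ {a})).mono inf_le_left le_rfl fun y ⟨hy, z, hz, e⟩ => by
      obtain ⟨b, hb, rfl⟩ := mem_orb.1 hz
      have h3 : g⁻¹ * (b⁻¹ * y * b) ∈ A := by
        have := A.mul_mem (A.mul_mem (mem_cj.1 (hg.symm ▸ A.inv_mem hb)) hy) hb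
        simpa [mul_assoc] using this
      refine ⟨b, hb, h3, Finset.mem_sdiff.2 ⟨?_, ?_⟩⟩
      · have := mem_delta (a := a) h3
        rwa [hg, ← orb_eq hs] at this
      · simpa [Equiv.symm_apply_eq] using e
  refine (h1.union h2).sub le_rfl ?_ fun x hx => ?_
  · have hB : st A a ≤ A := inf_le_left
    have h3 := UU_closed ((inv_orb.mono hB : Inv _ (orb A a)).sdiff (inv_single hf))
    have h4 := UU_mono hB (inv_univ.sdiff inv_orb : Inv _ (Finset.univ \ orb A a))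
    rw [Finset.card_sdiff_of_subset (by simpa using self_mem_orb), Finset.card_singleton,
      Nat.sub_add_cancel (Finset.card_pos.2 ⟨_, self_mem_orb⟩)] at h3
    rw [UU_split (A := A) inv_orb (Finset.subset_univ _), UU_orb,
      UU_split (inv_orb.mono hB) (Finset.subset_univ _), UU_erase self_mem_orb hf, ← mul_assoc]
    nlinarith [mul_le_mul_of_nonneg_left h4 (mul_nonneg (SS_nonneg (A := st A a)
      (D := orb A a \ {a})) (UU_pos (A := st A a) (D := orb A a \ {a})).le),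
      mul_le_mul_of_nonneg_right h3 (UU_pos (A := A) (D := Finset.univ \ orb A a)).le]
  · by_cases e : ∀ z ∈ orb A a, x z = z
    · exact Or.inl ⟨hx, e⟩
    · push Not at e
      exact Or.inr ⟨hx, e⟩

theorem opn_cls (A : Subgroup (Perm Ω)) : Opn A ∧ Cls A := by
  induction hn : Nat.card A using Nat.strong_induction_on generalizing A with
  | _ n ih =>
  have ih' : ∀ B : Subgroup (Perm Ω), B ≤ A → B ≠ A → Opn B ∧ Cls B := fun B h1 h2 =>
    ih _ (hn ▸ lt_of_not_ge fun e => h2 (Subgroup.eq_of_le_of_card_ge h1 e)) B rfl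
  have h1 := cls_of ih'
  refine ⟨fun g a s h => ?_, h1⟩
  have h2 : UU A Finset.univ ≤ lam (orb A a).card * UU A Finset.univ :=
    le_mul_of_one_le_left UU_pos.le (one_le_lam _)
  by_cases hne : st A a = A
  · have h3 : A ≤ cj g A := (hne.symm.trans h).le.trans inf_le_left
    exact (h1 g (Subgroup.eq_of_le_of_card_ge h3 (card_cj g).le).symm).sub hne.ge h2 subset_rfl
  · by_cases hs : s ∈ orb (cj g A) (g a)
    · exact near (ih' _ inf_le_left hne).1 h hs
    · exact (far (ih' _ inf_le_left hne).1 h hne hs).sub le_rfl h2 subset_rfl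

theorem card_le_UU (S : Subgroup (Perm Ω)) :
    (Nat.card (ConjClasses S) : ℝ) ≤ UU S Finset.univ := by
  obtain ⟨T, h1, h2⟩ := (opn_cls S).2 1 (by ext; simp [mem_cj])
  refine le_trans ?_ h1
  exact_mod_cast Cov.card_le ⟨T, le_rfl, h2⟩

theorem card_sq_le (S : Subgroup (Perm Ω)) (hn : 3 ≤ Fintype.card Ω) :
    Nat.card (ConjClasses S) ^ 2 ≤ 3 ^ (Fintype.card Ω - 1) := by
  have h1 := (card_le_UU S).trans (UU_le inv_univ)
  obtain ⟨k, hk⟩ : ∃ k, Fintype.card Ω = k + 3 := ⟨_, (Nat.sub_add_cancel hn).symm⟩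
  rw [Finset.card_univ, hk, u3] at h1
  have h2 := pow_le_pow_left₀ (by positivity) h1 2
  rw [mul_pow, ← pow_mul, mul_comm k, pow_mul, sq r, r_sq, ← pow_add] at h2
  rw [hk, show k + 3 - 1 = 2 + k by omega]
  exact_mod_cast h2

end Cfsg.Agent.PCl
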