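import Mathlib

/-! Numerical inequalities for the class number bound `√3 ^ (n - 1)`. -/

set_option autoImplicit false

namespace Cfsg.Agent.PCl

noncomputable def r : ℝ := Real.sqrt 3

theorem r_sq : r * r = 3 := Real.mul_self_sqrt (by norm_num)

theorem r_pos : 0 < r := Real.sqrt_pos.2 (by norm_num)

theorem r_lo : 1.732 < r := by nlinarith [r_sq, r_pos]

theorem r_hi : r < 1.7321 := by nlinarith [r_sq, r_pos]

noncomputable def u (m : ℕ) : ℝ := if m ≤ 1 then 1 else if m = 2 then 2 else r ^ (m - 1)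

noncomputable def lam (m : ℕ) : ℝ := if m ≤ 2 then 1 else (1 + r) / 2

@[simp] theorem u0 : u 0 = 1 := by simp [u]
@[simp] theorem u1 : u 1 = 1 := by simp [u]
@[simp] theorem u2 : u 2 = 2 := by simp [u]
theorem u3 (k : ℕ) : u (k + 3) = 3 * r ^ k := by
  have : r ^ (k + 2) = 3 * r ^ k := by rw [pow_add, sq, r_sq, mul_comm]
  simp [u, ← this]
theorem lam3 (k : ℕ) : lam (k + 3) = (1 + r) / 2 := by simp [lam]
@[simp] theorem lam1 : lam 1 = 1 := by simp [lam]
@[simp] theorem lam2 : lam 2 = 1 := by simp [lam]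

theorem one_le_lam (m : ℕ) : 1 ≤ lam m := by
  unfold lam; split_ifs <;> linarith [r_lo]

theorem one_le_rp (k : ℕ) : 1 ≤ r ^ k := one_le_pow₀ (by linarith [r_lo])

theorem one_le_u (m : ℕ) : 1 ≤ u m := by
  unfold u; split_ifs
  exacts [le_rfl, by norm_num, one_le_rp _]

theorem u_pos (m : ℕ) : 0 < u m := one_pos.trans_le (one_le_u m)

theorem tri (m : ℕ) : m = 0 ∨ m = 1 ∨ m = 2 ∨ ∃ k, m = k + 3 := by
  rcases m with _ | _ | _ | k <;> simp

theorem u_mul (m t : ℕ) : u m * u t ≤ u (m + t) := by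
  have h1 := r_lo
  have h2 := r_sq
  wlog h : m ≤ t generalizing m t
  · rw [mul_comm, add_comm]; exact this _ _ (by omega)
  rcases tri m with rfl | rfl | rfl | ⟨k, rfl⟩
  · simp
  · rcases tri t with rfl | rfl | rfl | ⟨j, rfl⟩
    · simp
    · simp
    · rw [show 1 + 2 = 0 + 3 by rfl, u3]; norm_num
    · rw [show 1 + (j + 3) = (j + 1) + 3 by ring, u3, u3, pow_succ, u1]
      nlinarith [one_le_rp j]
  · rcases tri t with rfl | rfl | rfl | ⟨j, rfl⟩
    · simp
    · omega
    · rw [show 2 + 2 = 1 + 3 by rfl, u3]; norm_num; linarith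
    · rw [show 2 + (j + 3) = (j + 1 + 1) + 3 by ring, u3, u3, pow_succ, pow_succ, u2, mul_assoc _ r,
        h2]
      nlinarith [one_le_rp j]
  · obtain ⟨j, rfl⟩ : ∃ j, t = j + 3 := ⟨t - 3, by omega⟩
    rw [show k + 3 + (j + 3) = (k + j + 1 + 1 + 1) + 3 by ring, u3, u3, u3, pow_succ, pow_succ,
      pow_succ, pow_add, mul_assoc _ r r, h2]
    nlinarith [mul_pos (pow_pos r_pos k) (pow_pos r_pos j)]

theorem u_sq (k : ℕ) : (u (k + 3) - 1) * u (k + 1) ≤ u (k + 2) * u (k + 2) := by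
  have h1 := r_hi
  have h2 := r_sq
  rcases k with _ | _ | k
  · rw [u3]; norm_num
  · rw [u3, show 0 + 1 + 2 = 0 + 3 by rfl, u3]; norm_num; linarith
  · rw [u3, show k + 1 + 1 + 1 = k + 3 by rfl, show k + 1 + 1 + 2 = k + 1 + 3 by rfl, u3, u3,
      pow_succ, pow_succ, mul_assoc _ r r, h2]
    have : r ^ k * r * (r ^ k * r) = 3 * (r ^ k * r ^ k) := by rw [← h2]; ring
    nlinarith [one_le_rp k]

variable {ι : Type*} (s : Finset ι) (f : ι → ℕ)

theorem prod_u_le : ∏ i ∈ s, u (f i) ≤ u (∑ i ∈ s, f i) := by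
  classical
  induction s using Finset.induction_on with
  | empty => simp
  | insert a s ha ih =>
    rw [Finset.prod_insert ha, Finset.sum_insert ha]
    exact (mul_le_mul_of_nonneg_left ih (u_pos _).le).trans (u_mul _ _)

theorem stp {σ l x P c R U c' V : ℝ} (h : (σ + (x + l)) * P ≤ c * R) (hU : 0 ≤ U) (hR : 0 ≤ R)
    (hc : c * U ≤ c' * V) : (l + σ + x) * (U * P) ≤ c' * (V * R) := by
  nlinarith [mul_le_mul_of_nonneg_left h hU, mul_le_mul_of_nonneg_right hc hR]

theorem inv_aux (hf : ∀ i ∈ s, 1 ≤ f i) :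
    (∀ x : ℝ, 2 ≤ x → (∑ i ∈ s, lam (f i) + x) * ∏ i ∈ s, u (f i) ≤ x * r ^ ∑ i ∈ s, f i) ∧
    (∑ i ∈ s, lam (f i) + 1) * ∏ i ∈ s, u (f i) ≤ (1 + r) / 2 * r ^ ∑ i ∈ s, f i ∧
    (∑ i ∈ s, lam (f i) + (1 + r) / 2) * ∏ i ∈ s, u (f i) ≤ (1 + r / 3) * r ^ ∑ i ∈ s, f i ∧
    (∑ i ∈ s, lam (f i) + 0) * ∏ i ∈ s, u (f i) ≤ (1 + r) / 3 * r ^ ∑ i ∈ s, f i := by
  classical
  have h1 := r_lo
  have h2 := r_sq
  have h3 := r_hi
  induction s using Finset.induction_on with
  | empty =>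
    simp only [Finset.sum_empty, Finset.prod_empty, pow_zero]
    exact ⟨fun x _ => by linarith, by linarith, by linarith, by linarith⟩
  | insert a s ha ih =>
    obtain ⟨i1, i2, i3, i4⟩ := ih fun i hi => hf i (Finset.mem_insert_of_mem hi)
    have h4 := hf a (Finset.mem_insert_self _ _)
    have hU := u_pos (f a)
    have hR := (pow_pos r_pos (∑ i ∈ s, f i)).le
    simp only [Finset.prod_insert ha, Finset.sum_insert ha, pow_add]
    have h5 : (lam (f a) = 1 ∧ 3 / 2 * u (f a) ≤ r ^ f a) ∨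
        (lam (f a) = (1 + r) / 2 ∧ r ^ f a = r * u (f a)) := by
      rcases tri (f a) with e | e | e | ⟨k, e⟩
      · omega
      · left; simp [e]; linarith
      · left; simp [e, sq, h2]
      · right; rw [e, u3, lam3, pow_succ, pow_succ, pow_succ, mul_assoc _ r r, h2]
        exact ⟨rfl, by ring⟩
    rcases h5 with ⟨e, h5⟩ | ⟨e, h5⟩
    · rw [e]
      exact ⟨fun x hx => stp (i1 _ (by linarith)) hU.le hR (by nlinarith),
        stp (i1 _ (by linarith)) hU.le hR (by nlinarith),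
        stp (i1 _ (by linarith)) hU.le hR (by nlinarith),
        stp (by rwa [zero_add]) hU.le hR (by nlinarith)⟩
    · rw [e, h5]
      have h6 : ∀ {c c' : ℝ}, c ≤ c' * r → c * u (f a) ≤ c' * (r * u (f a)) := fun h => by
        nlinarith
      exact ⟨fun x hx => stp (i1 _ (by linarith)) hU.le hR (h6 (by nlinarith)),
        stp (i1 _ (by linarith)) hU.le hR (h6 (by nlinarith)),
        stp (i1 _ (by linarith)) hU.le hR (h6 (by nlinarith)),
        stp (by rwa [zero_add]) hU.le hR (h6 (by nlinarith))⟩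

noncomputable def kap : ℕ → ℝ
  | 0 => 0
  | 1 => 1
  | 2 => 2
  | 3 => 4.1
  | _ => 8

theorem small_aux (hf : ∀ i ∈ s, 1 ≤ f i) (ht : ∑ i ∈ s, f i ≤ 4) :
    (∑ i ∈ s, lam (f i)) * ∏ i ∈ s, u (f i) ≤ kap (∑ i ∈ s, f i) := by
  classical
  have h1 := r_lo
  have h2 := r_sq
  have h3 := r_hi
  induction s using Finset.induction_on with
  | empty => simp [kap]
  | insert a s ha ih =>
    simp only [Finset.prod_insert ha, Finset.sum_insert ha] at ht ⊢
    have i1 := ih (fun i hi => hf i (Finset.mem_insert_of_mem hi)) (by omega)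
    have i2 := prod_u_le s f
    have h4 := hf a (Finset.mem_insert_self _ _)
    have h5 : u (f a) * (lam (f a) * u (∑ i ∈ s, f i) + kap (∑ i ∈ s, f i)) ≤
        kap (f a + ∑ i ∈ s, f i) := by
      generalize f a = m at *
      generalize ∑ i ∈ s, f i = t at *
      have e3 : u 3 = 3 := by simpa using u3 0
      have e4 : u 4 = 3 * r := by simpa using u3 1
      have e5 : lam 3 = (1 + r) / 2 := lam3 0
      have e6 : lam 4 = (1 + r) / 2 := lam3 1
      have : t ≤ 3 := by omega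
      have : m ≤ 4 := by omega
      interval_cases m <;> interval_cases t <;> simp [kap, e3, e4, e5, e6] at ht ⊢ <;> nlinarith
    nlinarith [mul_le_mul_of_nonneg_left i1 (u_pos (f a)).le,
      mul_le_mul_of_nonneg_left i2 (mul_pos (u_pos (f a)) (one_pos.trans_le (one_le_lam (f a)))).le]

theorem key_open (hf : ∀ i ∈ s, 1 ≤ f i) :
    (1 + ∑ i ∈ s, lam (f i)) * ∏ i ∈ s, u (f i) ≤
      lam (∑ i ∈ s, f i + 1) * u (∑ i ∈ s, f i + 1) := by
  have i1 := small_aux s f hf
  have i2 := prod_u_le s f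
  have i3 := (inv_aux s f hf).2.1
  generalize ∑ i ∈ s, f i = t at *
  rcases t with _ | _ | t
  · have := i1 (by norm_num); simp [kap] at *; linarith
  · have := i1 (by norm_num); simp [kap] at *; linarith
  · rw [show t + 1 + 1 + 1 = t + 3 by rfl, u3, lam3]
    rw [pow_succ, pow_succ, mul_assoc _ r r, r_sq] at i3
    linarith

theorem key_closed (hf : ∀ i ∈ s, 1 ≤ f i) :
    1 + (∑ i ∈ s, lam (f i)) * ∏ i ∈ s, u (f i) ≤ u (∑ i ∈ s, f i + 1) := by
  have i1 := small_aux s f hf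
  have i3 := (inv_aux s f hf).2.2.2
  have h1 := r_lo
  have h2 := r_sq
  have h3 := r_hi
  generalize ∑ i ∈ s, f i = t at *
  rcases t with _ | _ | _ | _ | _ | t
  · have := i1 (by norm_num); simp [kap] at *; linarith
  · have := i1 (by norm_num); simp [kap] at *; linarith
  · have := i1 (by norm_num); have e := u3 0; simp [kap] at *; linarith
  · have := i1 (by norm_num); have e := u3 1; simp [kap] at *; linarith
  · have := i1 (by norm_num); have e := u3 2; simp [kap, sq, h2] at *; linarith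
  · rw [show t + 1 + 1 + 1 + 1 + 1 + 1 = (t + 1 + 1 + 1) + 3 by rfl, u3]
    rw [pow_succ, pow_succ, mul_assoc _ r r, r_sq] at i3
    have : 5 ≤ r ^ (t + 1 + 1 + 1) := by
      rw [pow_succ, pow_succ, pow_succ, mul_assoc _ r r, r_sq]
      nlinarith [one_le_rp t]
    nlinarith

end Cfsg.Agent.PCl
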