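import Cfsg.Agent.PCl.Bas
import Cfsg.Agent.PCl.Num

/-! Orbit partitions and the multiplicative potential `UU`. -/

set_option autoImplicit false

namespace Cfsg.Agent.PCl

open MulAction Equiv
open scoped Classical

variable {Ω : Type*} [Fintype Ω]

/-- The orbit as a finset. -/
noncomputable def orb (A : Subgroup (Perm Ω)) (z : Ω) : Finset Ω :=
  Finset.univ.filter fun w => ∃ x ∈ A, x z = w

/-- Invariant finsets. -/
def Inv (A : Subgroup (Perm Ω)) (D : Finset Ω) : Prop := ∀ x ∈ A, ∀ z ∈ D, x z ∈ D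

/-- The potential. -/
noncomputable def UU (A : Subgroup (Perm Ω)) (D : Finset Ω) : ℝ :=
  ∏ P ∈ D.image (orb A), u P.card

/-- The sum of the branching weights. -/
noncomputable def SS (A : Subgroup (Perm Ω)) (D : Finset Ω) : ℝ :=
  ∑ P ∈ D.image (orb A), lam P.card

variable {A B : Subgroup (Perm Ω)} {D E : Finset Ω} {a z w : Ω}

theorem mem_orb : w ∈ orb A z ↔ ∃ x ∈ A, x z = w := by simp [orb]

theorem self_mem_orb : z ∈ orb A z := mem_orb.2 ⟨1, one_mem _, rfl⟩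

theorem orb_eq (h : w ∈ orb A z) : orb A w = orb A z := by
  obtain ⟨x, hx, rfl⟩ := mem_orb.1 h
  ext v
  simp only [mem_orb]
  exact ⟨fun ⟨y, hy, e⟩ => ⟨y * x, mul_mem hy hx, e⟩,
    fun ⟨y, hy, e⟩ => ⟨y * x⁻¹, mul_mem hy (inv_mem hx), by simpa using e⟩⟩

theorem inv_orb : Inv A (orb A z) := fun x hx _ hv => by
  obtain ⟨y, hy, rfl⟩ := mem_orb.1 hv
  exact mem_orb.2 ⟨x * y, mul_mem hx hy, rfl⟩

omit [Fintype Ω] in
theorem Inv.mono (h : Inv A D) (hB : B ≤ A) : Inv B D := fun x hx => h x (hB hx)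

omit [Fintype Ω] in
theorem Inv.sdiff (h : Inv A D) (h' : Inv A E) : Inv A (D \ E) := fun x hx z hz => by
  rw [Finset.mem_sdiff] at hz ⊢
  exact ⟨h x hx z hz.1, fun e => hz.2 (by simpa using h' _ (inv_mem hx) _ e)⟩

theorem inv_univ : Inv A (Finset.univ : Finset Ω) := fun _ _ _ _ => Finset.mem_univ _

theorem Inv.orb_subset (h : Inv A D) (hz : z ∈ D) : orb A z ⊆ D := fun w hw => by
  obtain ⟨x, hx, rfl⟩ := mem_orb.1 hw
  exact h x hx z hz

theorem Inv.disj (hE : Inv A E) :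
    Disjoint (E.image (orb A)) ((D \ E).image (orb A)) := by
  rw [Finset.disjoint_left]
  intro P h1 h2
  obtain ⟨z, hz, rfl⟩ := Finset.mem_image.1 h1
  obtain ⟨w, hw, e⟩ := Finset.mem_image.1 h2
  exact (Finset.mem_sdiff.1 hw).2 (hE.orb_subset hz (e ▸ self_mem_orb))

theorem UU_split (hE : Inv A E) (hs : E ⊆ D) : UU A D = UU A E * UU A (D \ E) := by
  rw [UU, UU, UU, ← Finset.prod_union hE.disj, ← Finset.image_union,
    Finset.union_sdiff_of_subset hs]

theorem SS_split (hE : Inv A E) (hs : E ⊆ D) : SS A D = SS A E + SS A (D \ E) := by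
  rw [SS, SS, SS, ← Finset.sum_union hE.disj, ← Finset.image_union,
    Finset.union_sdiff_of_subset hs]

theorem image_orb : (orb A z).image (orb A) = {orb A z} :=
  Finset.eq_singleton_iff_unique_mem.2 ⟨Finset.mem_image_of_mem _ self_mem_orb, fun P hP => by
    obtain ⟨w, hw, rfl⟩ := Finset.mem_image.1 hP
    exact orb_eq hw⟩

theorem UU_orb : UU A (orb A z) = u (orb A z).card := by simp [UU, image_orb]

theorem one_le_UU : 1 ≤ UU A D := 
  Finset.prod_induction _ (1 ≤ ·) (fun _ _ => one_le_mul_of_one_le_of_one_le) le_rfl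
    fun _ _ => one_le_u _

theorem UU_pos : 0 < UU A D := one_pos.trans_le one_le_UU

theorem SS_nonneg : 0 ≤ SS A D :=
  Finset.sum_nonneg fun _ _ => zero_le_one.trans (one_le_lam _)

theorem sum_card (h : Inv A D) : ∑ P ∈ D.image (orb A), P.card = D.card := by
  rw [Finset.card_eq_sum_card_image (orb A) D]
  refine Finset.sum_congr rfl fun P hP => congrArg _ ?_
  obtain ⟨z, hz, rfl⟩ := Finset.mem_image.1 hP
  ext w
  rw [Finset.mem_filter]
  exact ⟨fun hw => ⟨h.orb_subset hz hw, orb_eq hw⟩, fun hw => hw.2 ▸ self_mem_orb⟩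

theorem one_le_card : ∀ P ∈ D.image (orb A), 1 ≤ P.card := fun P hP => by
  obtain ⟨z, _, rfl⟩ := Finset.mem_image.1 hP
  exact Finset.card_pos.2 ⟨z, self_mem_orb⟩

theorem UU_le (h : Inv A D) : UU A D ≤ u D.card := sum_card h ▸ prod_u_le _ _

theorem UU_open (h : Inv A D) : (1 + SS A D) * UU A D ≤ lam (D.card + 1) * u (D.card + 1) :=
  sum_card h ▸ key_open _ _ one_le_card

theorem UU_closed (h : Inv A D) : 1 + SS A D * UU A D ≤ u (D.card + 1) :=
  sum_card h ▸ key_closed _ _ one_le_card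

theorem UU_mono (hB : B ≤ A) (h : Inv A D) : UU B D ≤ UU A D := by
  induction D using Finset.strongInduction with
  | H D ih =>
  obtain rfl | ⟨z, hz⟩ := D.eq_empty_or_nonempty
  · simp [UU]
  · have h1 := h.orb_subset hz
    rw [UU_split inv_orb h1, UU_split (inv_orb.mono hB) h1, UU_orb]
    exact mul_le_mul (UU_le (inv_orb.mono hB)) (ih _ (Finset.sdiff_ssubset h1 ⟨z, self_mem_orb⟩)
      (h.sdiff inv_orb)) UU_pos.le (u_pos _).le

theorem orb_fix (h : ∀ x ∈ A, x z = z) : orb A z = {z} :=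
  Finset.eq_singleton_iff_unique_mem.2 ⟨self_mem_orb, fun w hw => by
    obtain ⟨x, hx, rfl⟩ := mem_orb.1 hw
    exact h x hx⟩

theorem UU_fix (h : ∀ x ∈ A, ∀ z ∈ D, x z = z) : UU A D = 1 :=
  Finset.prod_eq_one fun P hP => by
    obtain ⟨z, hz, rfl⟩ := Finset.mem_image.1 hP
    rw [orb_fix fun x hx => h x hx z hz]; simp

omit [Fintype Ω] in
theorem inv_single (h : ∀ x ∈ A, x z = z) : Inv A {z} := fun x hx w hw => by
  rw [Finset.mem_singleton] at hw ⊢
  rw [hw, h x hx]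

theorem UU_erase (hz : z ∈ D) (hf : ∀ x ∈ A, x z = z) : UU A D = UU A (D \ {z}) := by
  rw [UU_split (inv_single hf) (by simpa), UU_fix (D := {z}) (by simpa), one_mul]

theorem SS_erase (hz : z ∈ D) (hf : ∀ x ∈ A, x z = z) :
    SS A D = 1 + SS A (D \ {z}) := by
  rw [SS_split (inv_single hf) (by simpa)]
  simp [SS, orb_fix hf]

theorem card_orb_mul (A : Subgroup (Perm Ω)) (a : Ω) :
    (orb A a).card * Nat.card (st A a) = Nat.card A := by
  have h1 := (stabilizer A a).index_mul_card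
  have h2 : (stabilizer A a).index = (orb A a).card := by
    rw [index_stabilizer, ← Set.ncard_coe_finset]
    congr 1
    ext w
    rw [Finset.mem_coe, mem_orb]
    exact ⟨fun ⟨x, e⟩ => ⟨x.1, x.2, e⟩, fun ⟨x, hx, e⟩ => ⟨⟨x, hx⟩, e⟩⟩
  rw [← h1, h2]
  congr 1
  refine Nat.card_congr ⟨fun x => ⟨⟨x.1, x.2.1⟩, x.2.2⟩, fun x => ⟨x.1.1, x.1.2, x.2⟩, ?_, ?_⟩ <;>
    intro x <;> rfl

/-- The conjugate `g A g⁻¹`. -/
def cj (g : Perm Ω) (A : Subgroup (Perm Ω)) : Subgroup (Perm Ω) :=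
  A.comap (MulAut.conj g⁻¹).toMonoidHom

omit [Fintype Ω] in
theorem mem_cj {g x : Perm Ω} : x ∈ cj g A ↔ g⁻¹ * x * g ∈ A := by simp [cj]

omit [Fintype Ω] in
theorem card_cj (g : Perm Ω) : Nat.card (cj g A) = Nat.card A :=
  Nat.card_congr ⟨fun x => ⟨_, mem_cj.1 x.2⟩, fun x => ⟨g * x * g⁻¹, mem_cj.2 (by
    simp [mul_assoc])⟩, fun x => by simp [mul_assoc], fun x => by simp [mul_assoc]⟩

theorem orb_cj (g : Perm Ω) : orb (cj g A) (g z) = (orb A z).map g.toEmbedding := by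
  ext w
  simp only [mem_orb, Finset.mem_map, mem_cj]
  exact ⟨fun ⟨x, hx, e⟩ => ⟨_, ⟨_, hx, rfl⟩, by simp [e]⟩, fun ⟨_, ⟨x, hx, e⟩, e'⟩ =>
    ⟨g * x * g⁻¹, by simpa [mul_assoc] using hx, by simpa [e] using e'⟩⟩

theorem UU_cj (g : Perm Ω) : UU (cj g A) Finset.univ = UU A Finset.univ := by
  symm
  refine Finset.prod_bij (fun P _ => P.map g.toEmbedding) ?_ ?_ ?_ ?_
  · intro P hP
    obtain ⟨z, _, rfl⟩ := Finset.mem_image.1 hP
    exact Finset.mem_image.2 ⟨g z, Finset.mem_univ _, orb_cj g⟩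
  · intro P _ Q _ e
    exact Finset.map_injective _ e
  · intro P hP
    obtain ⟨z, _, rfl⟩ := Finset.mem_image.1 hP
    exact ⟨orb A (g⁻¹ z), Finset.mem_image_of_mem _ (Finset.mem_univ _), by
      rw [← orb_cj]; simp⟩
  · intro P _
    rw [Finset.card_map]

end Cfsg.Agent.PCl
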